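import Mathlib
import Cfsg.Agent.S3762
import Cfsg.Agent.Lib.Helper66.ExtraChar
import Cfsg.Agent.Lib.Helper99.C64.Defs

/-!
# C64 (S6000): package [STRUCT]

A `2`-group of symplectic type and exponent `4` has central commutators of order at most `2`
(P. Hall, landed S3762); for an absolutely irreducible matrix group this gives `SqPM` and `CommPM`.
-/

set_option autoImplicit false

namespace Cfsg.Agent.Lib.Helper70.C64

open Matrix Cfsg.Agent.Lib.Helper99.C64

universe u

/-- multiplying the first argument of a commutator by a central element does not change it -/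
theorem c64_comm_mul_left {G : Type u} [Group G] (g k z : G) (hz : z * k = k * z) :
    (g * z) * k * (g * z)⁻¹ * k⁻¹ = g * k * g⁻¹ * k⁻¹ := by
  calc (g * z) * k * (g * z)⁻¹ * k⁻¹ = g * (z * k) * z⁻¹ * g⁻¹ * k⁻¹ := by group
    _ = g * (k * z) * z⁻¹ * g⁻¹ * k⁻¹ := by rw [hz]
    _ = g * k * g⁻¹ * k⁻¹ := by group

/-- multiplying the second argument of a commutator by a central element does not change it -/
theorem c64_comm_mul_right {G : Type u} [Group G] (g k z : G) (hz : z * g⁻¹ = g⁻¹ * z) :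
    g * (k * z) * g⁻¹ * (k * z)⁻¹ = g * k * g⁻¹ * k⁻¹ := by
  calc g * (k * z) * g⁻¹ * (k * z)⁻¹ = g * k * (z * g⁻¹) * z⁻¹ * k⁻¹ := by group
    _ = g * k * (g⁻¹ * z) * z⁻¹ * k⁻¹ := by rw [hz]
    _ = g * k * g⁻¹ * k⁻¹ := by group

/-- In a `2`-group of symplectic type and exponent `4` every commutator is central of order
at most `2`. -/
theorem c64_comm_central_sq {G : Type u} [Group G] [Finite G] (hG : IsPGroup 2 G)
    (hsymp : ∀ A : Subgroup G, A.Characteristic → IsMulCommutative A → IsCyclic A)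
    (hexp : Monoid.exponent G = 4) (g k : G) :
    g * k * g⁻¹ * k⁻¹ ∈ Subgroup.center G ∧ (g * k * g⁻¹ * k⁻¹) ^ 2 = 1 := by
  haveI : Fact (Nat.Prime 2) := ⟨Nat.prime_two⟩
  obtain ⟨E, C, hcomm, hsup, hE, hC⟩ := Cfsg.Agent.S3762.result hG hsymp
  have hord4 : ∀ x : G, orderOf x ∣ 4 := fun x => hexp ▸ Monoid.order_dvd_exponent x
  -- `C` is cyclic
  have hCcyc : IsCyclic C := by
    rcases hC with h | ⟨_, h16, h | h | h⟩
    · exact h
    · exfalso
      obtain ⟨m, ⟨e⟩⟩ := h
      have hcard : Nat.card C = 2 * m := by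
        rw [Nat.card_congr e.toEquiv, DihedralGroup.nat_card]
      have hord : orderOf (e.symm (DihedralGroup.r 1)) = m := by
        rw [MulEquiv.orderOf_eq, DihedralGroup.orderOf_r_one]
      have hdvd : m ∣ 4 := by
        rw [← hord, ← Subgroup.orderOf_coe]
        exact hord4 _
      have hm0 : 0 < m := by omega
      have := Nat.le_of_dvd (by norm_num) hdvd
      omega
    · exfalso
      obtain ⟨m, ⟨e⟩⟩ := h
      have hord : orderOf (e.symm (QuaternionGroup.a 1)) = 2 * m := by
        rw [MulEquiv.orderOf_eq, QuaternionGroup.orderOf_a_one]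
      have hpos : 0 < orderOf (e.symm (QuaternionGroup.a 1)) := orderOf_pos _
      have hm0 : m ≠ 0 := by omega
      haveI : NeZero m := ⟨hm0⟩
      have hcard : Nat.card C = 4 * m := by
        rw [Nat.card_congr e.toEquiv, Nat.card_eq_fintype_card, QuaternionGroup.card]
      have hdvd : 2 * m ∣ 4 := by
        rw [← hord, ← Subgroup.orderOf_coe]
        exact hord4 _
      have := Nat.le_of_dvd (by norm_num) hdvd
      omega
    · exfalso
      obtain ⟨n, hn, -, x, y, hx, -, -⟩ := h
      have hdvd : 2 ^ n ∣ 4 := by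
        rw [← hx, ← Subgroup.orderOf_coe]
        exact hord4 _
      have h8 : 2 ^ 3 ≤ 2 ^ n := Nat.pow_le_pow_right (by norm_num) hn
      have := Nat.le_of_dvd (by norm_num) hdvd
      omega
  -- elements of `C` are central
  have hCC : ∀ c ∈ C, ∀ c' ∈ C, c * c' = c' * c := by
    intro c hc c' hc'
    haveI : IsMulCommutative C := IsCyclic.isMulCommutative
    have := mul_comm' (⟨c, hc⟩ : C) ⟨c', hc'⟩
    exact congrArg Subtype.val this
  have hcen_of : ∀ w : G, (∀ e ∈ E, e * w = w * e) → (∀ c ∈ C, c * w = w * c) →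
      w ∈ Subgroup.center G := by
    intro w h1 h2
    have hle : E ⊔ C ≤ Subgroup.centralizer {w} := by
      refine sup_le ?_ ?_
      · intro e he
        rw [Subgroup.mem_centralizer_iff]
        intro x hx
        rw [Set.mem_singleton_iff] at hx
        subst hx
        exact (h1 e he).symm
      · intro c hc
        rw [Subgroup.mem_centralizer_iff]
        intro x hx
        rw [Set.mem_singleton_iff] at hx
        subst hx
        exact (h2 c hc).symm
    rw [Subgroup.mem_center_iff]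
    intro x
    have hx : x ∈ Subgroup.centralizer {w} := hle (hsup ▸ Subgroup.mem_top x)
    rw [Subgroup.mem_centralizer_iff] at hx
    exact (hx w rfl).symm
  have hCcen : ∀ c ∈ C, c ∈ Subgroup.center G := by
    intro c hc
    exact hcen_of c (fun e he => hcomm e he c hc) (fun c' hc' => hCC c' hc' c hc)
  haveI : C.Normal := by
    refine ⟨fun c hc x => ?_⟩
    have h := Subgroup.mem_center_iff.1 (hCcen c hc) x
    rw [h, mul_inv_cancel_right]
    exact hc
  -- decomposition of elements
  have hdec : ∀ x : G, ∃ e ∈ E, ∃ c ∈ C, x = e * c := by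
    intro x
    have hx : x ∈ E ⊔ C := hsup ▸ Subgroup.mem_top x
    rw [← SetLike.mem_coe, Subgroup.mul_normal] at hx
    obtain ⟨e, he, c, hc, rfl⟩ := Set.mem_mul.1 hx
    exact ⟨e, he, c, hc, rfl⟩
  obtain ⟨e, he, c, hc, rfl⟩ := hdec g
  obtain ⟨e', he', c', hc', rfl⟩ := hdec k
  have hc1 : ∀ x : G, x * c = c * x := Subgroup.mem_center_iff.1 (hCcen c hc)
  have hc2 : ∀ x : G, x * c' = c' * x := Subgroup.mem_center_iff.1 (hCcen c' hc')
  have hred : (e * c) * (e' * c') * (e * c)⁻¹ * (e' * c')⁻¹ = e * e' * e⁻¹ * e'⁻¹ := by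
    rw [c64_comm_mul_left e (e' * c') c (hc1 _).symm,
      c64_comm_mul_right e e' c' (hc2 _).symm]
  rw [hred]
  rcases hE with hE | hE
  · have h1 : e = 1 := by
      have : e ∈ (⊥ : Subgroup G) := hE ▸ he
      simpa using this
    have h2 : e' = 1 := by
      have : e' ∈ (⊥ : Subgroup G) := hE ▸ he'
      simpa using this
    subst h1 h2
    simp
  · have hw := Cfsg.Agent.Lib.Helper66.ExtraChar.comm_mem_center hE ⟨e, he⟩ ⟨e', he'⟩
    set w : E := (⟨e, he⟩ : E) * ⟨e', he'⟩ * (⟨e, he⟩ : E)⁻¹ * (⟨e', he'⟩ : E)⁻¹ with hwdef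
    have hwG : (w : G) = e * e' * e⁻¹ * e'⁻¹ := by
      simp [hwdef]
    rw [← hwG]
    constructor
    · refine hcen_of _ ?_ ?_
      · intro x hx
        have := Subgroup.mem_center_iff.1 hw ⟨x, hx⟩
        exact congrArg Subtype.val this
      · intro x hx
        exact (hcomm w w.2 x hx).symm
    · have h2 : Nat.card (Subgroup.center E) = 2 := hE.2
      have h3 : (⟨w, hw⟩ : Subgroup.center E) ^ 2 = 1 := by
        rw [← h2]
        exact pow_card_eq_one'
      have h4 : w ^ 2 = 1 := by
        have := congrArg Subtype.val h3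
        simpa using this
      have := congrArg Subtype.val h4
      simpa using this

/-- squares are central when commutators are central involutions -/
theorem c64_sq_central {G : Type u} [Group G]
    (h : ∀ g k : G, g * k * g⁻¹ * k⁻¹ ∈ Subgroup.center G ∧ (g * k * g⁻¹ * k⁻¹) ^ 2 = 1)
    (g : G) : g ^ 2 ∈ Subgroup.center G := by
  rw [Subgroup.mem_center_iff]
  intro k
  obtain ⟨hw, hw2⟩ := h g k
  have hwc : ∀ x : G, x * (g * k * g⁻¹ * k⁻¹) = (g * k * g⁻¹ * k⁻¹) * x :=
    Subgroup.mem_center_iff.1 hw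
  have e1 : g * k = (g * k * g⁻¹ * k⁻¹) * k * g := by group
  generalize g * k * g⁻¹ * k⁻¹ = w at hw hw2 hwc e1
  calc k * g ^ 2 = (w ^ 2) * k * g * g := by rw [hw2, pow_two]; simp [mul_assoc]
    _ = w * (w * k * g) * g := by rw [pow_two]; simp [mul_assoc]
    _ = w * (g * k) * g := by rw [← e1]
    _ = (w * g) * k * g := by group
    _ = (g * w) * k * g := by rw [hwc g]
    _ = g * (w * k * g) := by group
    _ = g * (g * k) := by rw [← e1]
    _ = g ^ 2 * k := by rw [pow_two]; simp [mul_assoc]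

/-- **[STRUCT]** -/
theorem pkgStruct : PkgStruct.{u} := by
  intro F _ _ p _ _ hcard hp4 R hR hR64
  have hexp : Monoid.exponent R = 4 := by
    have := hR.symplecticType.exponent_eq
    simpa using this
  have key : ∀ g k : R, g * k * g⁻¹ * k⁻¹ ∈ Subgroup.center R ∧ (g * k * g⁻¹ * k⁻¹) ^ 2 = 1 :=
    fun g k => c64_comm_central_sq hR.symplecticType.pGroup
      hR.symplecticType.cyclic_of_characteristic hexp g k
  -- central elements are scalar
  have hscal : ∀ z : R, z ∈ Subgroup.center R →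
      ∃ c : F, ((z : GL (Fin 4) F) : M4 F) = c • (1 : M4 F) := by
    intro z hz
    apply hR.absIrred.2
    rintro s ⟨k, hk, rfl⟩
    have h1 := (Subgroup.mem_center_iff.1 hz) ⟨k, hk⟩
    have h2 := congrArg (fun x : R => ((x : GL (Fin 4) F) : M4 F)) h1
    simpa using h2.symm
  have hsq1 : ∀ s : F, (s • (1 : M4 F)) * (s • (1 : M4 F)) = 1 → s = 1 ∨ s = -1 := by
    intro s hs
    have h0 := congrFun (congrFun hs 0) 0
    simp at h0
    have : (s - 1) * (s + 1) = 0 := by linear_combination h0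
    rcases mul_eq_zero.1 this with h | h
    · left; linear_combination h
    · right; linear_combination h
  constructor
  · -- SqPM
    intro g hg
    have hc := c64_sq_central key ⟨g, hg⟩
    obtain ⟨s, hs⟩ := hscal _ hc
    have hs' : (g : M4 F) * (g : M4 F) = s • (1 : M4 F) := by
      rw [← hs]; simp [pow_two]
    have h4 : (⟨g, hg⟩ : R) ^ 4 = 1 := by
      have := Monoid.pow_exponent_eq_one (⟨g, hg⟩ : R)
      rwa [hexp] at this
    have h4' : ((g : M4 F) * (g : M4 F)) * ((g : M4 F) * (g : M4 F)) = 1 := by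
      have := congrArg (fun x : R => ((x : GL (Fin 4) F) : M4 F)) h4
      simp only [Subgroup.coe_pow, Units.val_pow_eq_pow_val, Subgroup.coe_one, Units.val_one] at this
      rw [← this]; noncomm_ring
    rw [hs'] at h4' ⊢
    rcases hsq1 s h4' with h | h
    · left; rw [h, one_smul]
    · right; rw [h]; simp
  · -- CommPM
    intro g hg k hk
    obtain ⟨hw, hw2⟩ := key ⟨g, hg⟩ ⟨k, hk⟩
    have e1 : (⟨g, hg⟩ : R) * ⟨k, hk⟩ =
        ((⟨g, hg⟩ : R) * ⟨k, hk⟩ * (⟨g, hg⟩ : R)⁻¹ * (⟨k, hk⟩ : R)⁻¹) * ⟨k, hk⟩ * ⟨g, hg⟩ := by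
      group
    generalize (⟨g, hg⟩ : R) * ⟨k, hk⟩ * (⟨g, hg⟩ : R)⁻¹ * (⟨k, hk⟩ : R)⁻¹ = w at hw hw2 e1
    obtain ⟨s, hs⟩ := hscal _ hw
    have hw2' : (s • (1 : M4 F)) * (s • (1 : M4 F)) = 1 := by
      rw [← hs]
      have := congrArg (fun x : R => ((x : GL (Fin 4) F) : M4 F)) hw2
      simp only [Subgroup.coe_pow, Units.val_pow_eq_pow_val, Subgroup.coe_one, Units.val_one] at this
      rw [← this, pow_two]
    have e2 := congrArg (fun x : R => ((x : GL (Fin 4) F) : M4 F)) e1
    simp only [Subgroup.coe_mul, Units.val_mul] at e2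
    rw [hs] at e2
    rcases hsq1 s hw2' with h | h
    · left
      rw [e2, h]; simp
    · right
      rw [e2, h]; simp

end Cfsg.Agent.Lib.Helper70.C64
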